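import Mathlib
import Cfsg.Prelude.Def_Characters
import Cfsg.Prelude.Def_Solvable
import Cfsg.Agent.Lib.Helper74.TwoDeg
import Cfsg.Agent.Lib.Helper22.PComp
import Cfsg.Agent.Lib.Helper22.CharP
import Cfsg.Agent.Lib.Helper71.Fitting

/-!
# S5010: solvable groups with squarefree character degrees have derived length at most 4

Definitions and the exact package statements (team project, topic `S5010`).

Paper proof.  `F = F(G)`.
* `F'' = 1`: `F` is nilpotent, its Sylow subgroups have degrees in `{1, p}`.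
* for every prime `p`, `|O_p(G/F)| ≤ p`: let `P/F = O_p(G/F)`, `R = O_{p'}(F)`; `P` acts on the
  group `W` of linear characters of `R`, every stabilizer has index `1` or `p` (Clifford +
  squarefree degrees), so by the hyperplane lemma the kernel of the action has index `≤ p`;
  the kernel is `F` (coprime action on the nilpotent `R` + `C_P(R) ≤ F`).
* hence `G'` centralizes `F(G/F)`, so `G'F/F ≤ F(G/F)`, `G'' ≤ F`, `G'''' ≤ F'' = 1`.
-/

set_option autoImplicit false

namespace Cfsg.Agent.Lib.Helper39.SqfDeg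

universe u

/-- all irreducible character degrees are squarefree -/
def SFD (G : Type u) [Group G] : Prop :=
  ∀ χ : Cfsg.IrrCharacter G, Squarefree (Cfsg.charDegree (χ : G → ℂ))

section Dual

variable {G : Type u} [Group G]

/-- the conjugation action of `G` on the linear characters of a normal subgroup `R`:
`(g • lam) r = lam (g⁻¹ r g)` -/
noncomputable def dualAct (R : Subgroup G) [R.Normal] : G →* MulAut (↥R →* ℂˣ) where
  toFun g :=
    { toFun := fun lam => lam.comp ((MulAut.conjNormal g⁻¹ : MulAut R).toMonoidHom)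
      invFun := fun lam => lam.comp ((MulAut.conjNormal g : MulAut R).toMonoidHom)
      left_inv := by
        intro lam
        ext r
        simp
      right_inv := by
        intro lam
        ext r
        simp
      map_mul' := by
        intro a b
        ext r
        simp }
  map_one' := by
    ext lam r
    simp
  map_mul' := by
    intro a b
    ext lam r
    simp [mul_assoc]

theorem dualAct_apply (R : Subgroup G) [hR : R.Normal] (g : G) (lam : ↥R →* ℂˣ) (r : R) :
    dualAct R g lam r = lam ⟨g⁻¹ * r * g, by simpa using hR.conj_mem r r.2 g⁻¹⟩ := by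
  show lam ((MulAut.conjNormal g⁻¹ : MulAut R) r) = _
  congr 1
  apply Subtype.ext
  simp

/-- `g` fixes `lam` iff `g` lies in the inertia group of `lam`. -/
theorem dualAct_eq_iff (R : Subgroup G) [hR : R.Normal] (g : G) (lam : ↥R →* ℂˣ) :
    dualAct R g lam = lam ↔
      g ∈ Cfsg.Agent.Lib.Helper75.inertia R (Cfsg.Agent.Lib.Helper74.linFun lam) := by
  rw [← inv_mem_iff, Cfsg.Agent.Lib.Helper75.mem_inertia_iff']
  constructor
  · intro h r
    have h1 := congrArg (fun f : ↥R →* ℂˣ => f r) h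
    simp only [dualAct_apply] at h1
    show ((lam _ : ℂˣ) : ℂ) = ((lam r : ℂˣ) : ℂ)
    rw [← h1]
    congr 3
    simp
  · intro h
    ext r
    rw [dualAct_apply]
    have h1 : ((lam _ : ℂˣ) : ℂ) = ((lam r : ℂˣ) : ℂ) := h r
    rw [← h1]
    congr 3
    simp

end Dual

/-- `R = O_{p'}(F(G))`, the `p'`-part of the Fitting subgroup -/
def RR (p : ℕ) (G : Type u) [Group G] : Subgroup G :=
  Cfsg.pPrimeCore p G ⊓ Cfsg.fittingSubgroup G

instance RR_normal (p : ℕ) (G : Type u) [Group G] : (RR p G).Normal := by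
  unfold RR
  infer_instance

/-- `P`, the preimage in `G` of `O_p(G / F(G))` -/
def PP (p : ℕ) (G : Type u) [Group G] : Subgroup G :=
  (Cfsg.pCore p (G ⧸ Cfsg.fittingSubgroup G)).comap (QuotientGroup.mk' (Cfsg.fittingSubgroup G))

instance PP_normal (p : ℕ) (G : Type u) [Group G] : (PP p G).Normal := by
  unfold PP
  exact (Cfsg.Agent.Lib.Helper22.pCore_normal' p _).comap _

/-! ## The packages -/

/-- **[DEG]** squarefree degrees pass to normal subgroups, and inertia groups of linear characters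
of normal subgroups have squarefree index. -/
def PkgDeg : Prop :=
  ∀ (G : Type u) [Group G] [Finite G] (N : Subgroup G) [N.Normal], SFD G →
    SFD ↥N ∧ ∀ lam : ↥N →* ℂˣ,
      Squarefree (Cfsg.Agent.Lib.Helper75.inertia N (Cfsg.Agent.Lib.Helper74.linFun lam)).index

/-- **[NILP]** a nilpotent group with squarefree degrees is metabelian. -/
def PkgNilp : Prop :=
  ∀ (N : Type u) [Group N] [Finite N] [Group.IsNilpotent N], SFD N → derivedSeries N 2 = ⊥

/-- **[STRUCT]** a solvable group all of whose `O_p` have order at most `p` is metabelian. -/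
def PkgStruct : Prop :=
  ∀ (Q : Type u) [Group Q] [Finite Q] [Group.IsSolvable Q],
    (∀ p : ℕ, p.Prime → Nat.card (Cfsg.pCore p Q) ≤ p) → derivedSeries Q 2 = ⊥

/-- **[HYP]** the hyperplane lemma: a group acting through a `p`-group on an abelian group
without `p`-torsion, such that every point has a stabilizer of index `1` or `p`, has a kernel of
index `1` or `p`. -/
def PkgHyp : Prop :=
  ∀ (V : Type u) [Group V] [Finite V] (W : Type u) [CommGroup W] (p : ℕ) [Fact p.Prime]
    (φ : V →* MulAut W),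
    (∀ w : W, w ^ p = 1 → w = 1) →
    (∀ v : V, ∃ k : ℕ, (φ v) ^ (p ^ k) = 1) →
    (∀ w : W, ∃ H : Subgroup V, H.index ∣ p ∧ ∀ h ∈ H, φ h w = w) →
    φ.ker.index ∣ p

/-- **[COP]** an automorphism of `p`-power order of a nilpotent `p'`-group `R` acting trivially on
`R / R'` is trivial. -/
def PkgCoprime : Prop :=
  ∀ (R : Type u) [Group R] [Finite R] [Group.IsNilpotent R] (p : ℕ) [Fact p.Prime]
    (σ : MulAut R) (k : ℕ),
    (Nat.card R).Coprime p → σ ^ (p ^ k) = 1 → (∀ r : R, r⁻¹ * σ r ∈ commutator R) →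
    ∀ r : R, σ r = r

/-- **[R]** the basic facts on `R = O_{p'}(F(G))`. -/
def PkgR : Prop :=
  ∀ (G : Type u) [Group G] [Finite G] (p : ℕ) [Fact p.Prime],
    (Nat.card (RR p G)).Coprime p ∧ Group.IsNilpotent (RR p G) ∧
    (∀ z ∈ Cfsg.fittingSubgroup G, ∃ j : ℕ, z ^ (p ^ j) ∈ RR p G) ∧
    (∀ z ∈ Cfsg.fittingSubgroup G, ∃ b ∈ RR p G, ∀ r ∈ RR p G, z * r * z⁻¹ = b * r * b⁻¹)

/-- **[CLA]** `C_P(R) ≤ F(G)` when `P` is normal and `P F / F` is a `p`-group. -/
def PkgClaimA : Prop :=
  ∀ (G : Type u) [Group G] [Finite G] (p : ℕ) [Fact p.Prime] (P : Subgroup G) [P.Normal],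
    (∀ x ∈ P, ∃ k : ℕ, x ^ (p ^ k) ∈ Cfsg.fittingSubgroup G) →
    P ⊓ Subgroup.centralizer (RR p G : Set G) ≤ Cfsg.fittingSubgroup G

/-- **[STAB]** the stabilizer in `P` of a linear character of `R` has index `1` or `p`. -/
def PkgStab : Prop :=
  ∀ (G : Type u) [Group G] [Finite G] (p : ℕ) [Fact p.Prime] (P : Subgroup G) [P.Normal],
    SFD G → (∀ x ∈ P, ∃ k : ℕ, x ^ (p ^ k) ∈ Cfsg.fittingSubgroup G) →
    ∀ lam : ↥(RR p G) →* ℂˣ,
      (Cfsg.Agent.Lib.Helper75.inertia (RR p G)
        (Cfsg.Agent.Lib.Helper74.linFun lam)).relIndex P ∣ p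

/-- **[KER]** an element of `P` fixing every linear character of `R` lies in `F(G)`. -/
def PkgKer : Prop :=
  ∀ (G : Type u) [Group G] [Finite G] (p : ℕ) [Fact p.Prime] (P : Subgroup G) [P.Normal],
    (∀ x ∈ P, ∃ k : ℕ, x ^ (p ^ k) ∈ Cfsg.fittingSubgroup G) →
    ∀ x ∈ P, (∀ lam : ↥(RR p G) →* ℂˣ, dualAct (RR p G) x lam = lam) →
      x ∈ Cfsg.fittingSubgroup G

/-- **[CORE]** `|O_p(G / F(G))| ≤ p`. -/
def PkgCore : Prop :=
  ∀ (G : Type u) [Group G] [Finite G] (p : ℕ) [Fact p.Prime], SFD G →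
    Nat.card (Cfsg.pCore p (G ⧸ Cfsg.fittingSubgroup G)) ≤ p

end Cfsg.Agent.Lib.Helper39.SqfDeg
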