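import Mathlib
import Cfsg.Agent.Lib.Helper39.SqfDeg.Defs
import Cfsg.Agent.Lib.Helper39.ThreeDegB

/-!
# S5010: `|O_p(G / F(G))| ≤ p` from the packages
-/

set_option autoImplicit false

namespace Cfsg.Agent.Lib.Helper39.SqfDeg

universe u

theorem pkgCore_of (hH : PkgHyp.{u}) (hS : PkgStab.{u}) (hK : PkgKer.{u}) (hR : PkgR.{u}) :
    PkgCore.{u} := by
  intro G _ _ p _ hsf
  obtain ⟨hcop, -, -, hR5⟩ := hR G p
  obtain ⟨F, hF⟩ : ∃ F : Subgroup G, F = Cfsg.fittingSubgroup G := ⟨_, rfl⟩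
  obtain ⟨P, hP⟩ : ∃ P : Subgroup G, P = PP p G := ⟨_, rfl⟩
  haveI hPn : P.Normal := by rw [hP]; infer_instance
  have hPF : ∀ x ∈ P, ∃ k : ℕ, x ^ (p ^ k) ∈ Cfsg.fittingSubgroup G := by
    intro x hx
    rw [hP] at hx
    have h1 : (QuotientGroup.mk' (Cfsg.fittingSubgroup G) x) ∈
        Cfsg.pCore p (G ⧸ Cfsg.fittingSubgroup G) := hx
    obtain ⟨k, hk⟩ := (Cfsg.Agent.Lib.Helper55.pCore_isPGroup p (G ⧸ Cfsg.fittingSubgroup G)) ⟨_, h1⟩
    refine ⟨k, ?_⟩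
    have h2 : (QuotientGroup.mk' (Cfsg.fittingSubgroup G) x) ^ (p ^ k) = 1 := by
      simpa using congrArg Subtype.val hk
    rw [← map_pow] at h2
    exact (QuotientGroup.eq_one_iff _).1 h2
  -- elements of `F` act trivially
  have hFtriv : ∀ z ∈ Cfsg.fittingSubgroup G, ∀ lam : ↥(RR p G) →* ℂˣ,
      dualAct (RR p G) z lam = lam := by
    intro z hz lam
    rw [dualAct_eq_iff, Cfsg.Agent.Lib.Helper75.mem_inertia_iff']
    intro n
    obtain ⟨b, hb, hbr⟩ := hR5 z hz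
    show ((lam _ : ℂˣ) : ℂ) = ((lam n : ℂˣ) : ℂ)
    congr 1
    have h1 : (⟨z * n * z⁻¹, (inferInstance : (RR p G).Normal).conj_mem n n.2 z⟩ : RR p G) =
        ⟨b, hb⟩ * n * (⟨b, hb⟩ : RR p G)⁻¹ := Subtype.ext (hbr n n.2)
    rw [h1, map_mul, map_mul, map_inv, mul_comm, inv_mul_cancel_left]
  obtain ⟨φ, hφ⟩ : ∃ φ : ↥P →* MulAut (↥(RR p G) →* ℂˣ), φ = (dualAct (RR p G)).comp P.subtype :=
    ⟨_, rfl⟩
  have hφa : ∀ (x : P) (lam : ↥(RR p G) →* ℂˣ), φ x lam = dualAct (RR p G) (x : G) lam := by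
    intro x lam
    rw [hφ]
    rfl
  have hker : φ.ker.index ∣ p := by
    apply hH ↥P (↥(RR p G) →* ℂˣ) p φ
    · intro w hw
      ext r
      have h1 : (w r) ^ p = 1 := by
        rw [← MonoidHom.pow_apply, hw]
        rfl
      have h2 : (w r) ^ Nat.card (RR p G) = 1 := by
        rw [← map_pow, pow_card_eq_one', map_one]
      have h3 : orderOf (w r) ∣ Nat.gcd (Nat.card (RR p G)) p :=
        Nat.dvd_gcd (orderOf_dvd_of_pow_eq_one h2) (orderOf_dvd_of_pow_eq_one h1)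
      rw [Nat.Coprime.gcd_eq_one hcop, Nat.dvd_one, orderOf_eq_one_iff] at h3
      rw [h3]
      rfl
    · intro v
      obtain ⟨k, hk⟩ := hPF v v.2
      refine ⟨k, ?_⟩
      rw [← map_pow]
      ext lam : 1
      rw [hφa]
      exact hFtriv _ hk lam
    · intro w
      refine ⟨(Cfsg.Agent.Lib.Helper75.inertia (RR p G)
        (Cfsg.Agent.Lib.Helper74.linFun w)).subgroupOf P, hS G p P hsf hPF w, ?_⟩
      intro h hh
      rw [hφa]
      exact (dualAct_eq_iff (RR p G) (h : G) w).2 hh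
  have hle : φ.ker ≤ (Cfsg.fittingSubgroup G).subgroupOf P := by
    intro x hx
    rw [MonoidHom.mem_ker] at hx
    rw [Subgroup.mem_subgroupOf]
    apply hK G p P hPF x x.2
    intro lam
    rw [← hφa, hx]
    rfl
  have h1 : ((Cfsg.fittingSubgroup G).subgroupOf P).index ∣ p :=
    (Subgroup.index_dvd_of_le hle).trans hker
  have h2 : (Cfsg.fittingSubgroup G).relIndex P =
      Nat.card (Cfsg.pCore p (G ⧸ Cfsg.fittingSubgroup G)) := by
    rw [hP]
    exact Cfsg.Agent.Lib.Helper39.ThreeDeg.relIndex_comap_mk (Cfsg.fittingSubgroup G) _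
  rw [← h2]
  exact Nat.le_of_dvd (Fact.out : p.Prime).pos h1

end Cfsg.Agent.Lib.Helper39.SqfDeg
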