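import Mathlib
import Cfsg.Agent.Lib.Helper39.SqfDeg.Defs
import Cfsg.Agent.Lib.Helper39.ThreeDegB

/-!
# S5010: the final assembly from the packages
-/

set_option autoImplicit false

namespace Cfsg.Agent.Lib.Helper39.SqfDeg

universe u

theorem s5010_of (hN : PkgNilp.{u}) (hD : PkgDeg.{u}) (hS : PkgStruct.{u}) (hC : PkgCore.{u})
    {G : Type u} [Group G] [Finite G] [Group.IsSolvable G] (h : SFD G) :
    derivedSeries G 4 = ⊥ := by
  have h1 : derivedSeries (G ⧸ Cfsg.fittingSubgroup G) 2 = ⊥ := by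
    apply hS
    intro p hp
    haveI : Fact p.Prime := ⟨hp⟩
    exact hC G p h
  have h2 : derivedSeries G 2 ≤ Cfsg.fittingSubgroup G :=
    Cfsg.Agent.Lib.Helper39.ThreeDeg.dser_le_of_quot _ 2 h1
  have h3 : derivedSeries (Cfsg.fittingSubgroup G) 2 = ⊥ := by
    haveI : Group.IsNilpotent (Cfsg.fittingSubgroup G) :=
      Cfsg.Agent.Lib.Helper71.fittingSubgroup_isNilpotent
    exact hN _ (hD G _ h).1
  have h4 := Cfsg.Agent.Lib.Helper39.ThreeDeg.dser_le_map (Cfsg.fittingSubgroup G) 2 0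
    (by rw [Cfsg.Agent.Lib.Helper39.ThreeDeg.map_dser_zero]; exact h2) 2
  have h5 : (0 : ℕ) + 2 = 2 := rfl
  rw [h5, h3, Subgroup.map_bot] at h4
  exact eq_bot_iff.2 h4

end Cfsg.Agent.Lib.Helper39.SqfDeg
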