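import Mathlib
import Cfsg.Agent.Lib.Helper39.SqfDeg.Defs

/-!
# S5010, package [KER]: the kernel of the action of `P` on the linear characters of `R` is in `F(G)`
-/

set_option autoImplicit false

namespace Cfsg.Agent.Lib.Helper39.SqfDeg

universe u

/-- an element all of whose linear-character values are trivial lies in the commutator
subgroup -/
theorem mem_commutator_of_lin {R : Type u} [Group R] [Finite R] (c : R)
    (h : ∀ lam : R →* ℂˣ, lam c = 1) : c ∈ commutator R := by
  by_contra hc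
  have h1 : (Abelianization.of c : Abelianization R) ≠ 1 := by
    intro h2
    exact hc ((QuotientGroup.eq_one_iff c).1 h2)
  obtain ⟨ψ, hψ⟩ := CommGroup.exists_apply_ne_one_of_hasEnoughRootsOfUnity (Abelianization R) ℂ h1
  exact hψ (h (ψ.comp Abelianization.of))

theorem pkgKer_of (hC : PkgCoprime.{u}) (hA : PkgClaimA.{u}) (hR : PkgR.{u}) : PkgKer.{u} := by
  intro G _ _ p _ P _ hPF x hx hfix
  obtain ⟨hcop, hnil, -, -⟩ := hR G p
  have hpp : p.Prime := Fact.out
  -- Step 1: fixing all linear characters means acting trivially modulo the commutator subgroup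
  have step1 : ∀ y : G, (∀ lam : ↥(RR p G) →* ℂˣ, dualAct (RR p G) y lam = lam) →
      ∀ r : RR p G, r⁻¹ * (MulAut.conjNormal y : MulAut (RR p G)) r ∈ commutator (RR p G) := by
    intro y hy r
    apply mem_commutator_of_lin
    intro lam
    have h1 := congrArg (fun f : ↥(RR p G) →* ℂˣ => f ((MulAut.conjNormal y : MulAut (RR p G)) r))
      (hy lam)
    simp only [dualAct_apply] at h1
    have h2 : ∀ (hmem : y⁻¹ * (((MulAut.conjNormal y : MulAut (RR p G)) r : RR p G) : G) * y ∈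
        RR p G), (⟨_, hmem⟩ : RR p G) = r := by
      intro hmem
      apply Subtype.ext
      simp [mul_assoc]
    rw [h2] at h1
    rw [map_mul, map_inv, ← h1, inv_mul_cancel]
  -- Step 2: the `p`-part of `x`
  obtain ⟨k, hk⟩ := hPF x hx
  obtain ⟨a, m, hm, hn⟩ := Nat.exists_eq_pow_mul_and_not_dvd (orderOf_pos x).ne' p hpp.ne_one
  have hy1 : (x ^ m) ^ (p ^ a) = 1 := by
    rw [← pow_mul, mul_comm, ← hn, pow_orderOf_eq_one]
  have hcopm : Nat.Coprime m (p ^ k) :=
    Nat.Coprime.pow_right k ((Nat.Prime.coprime_iff_not_dvd hpp).2 hm).symm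
  have hyF : x ^ m ∈ Cfsg.fittingSubgroup G := by
    apply hA G p P hPF
    refine ⟨Subgroup.pow_mem _ hx m, ?_⟩
    have hfix' : ∀ lam : ↥(RR p G) →* ℂˣ, dualAct (RR p G) (x ^ m) lam = lam := by
      have h1 : dualAct (RR p G) x = 1 := by
        ext lam : 1
        exact hfix lam
      intro lam
      rw [map_pow, h1, one_pow]
      rfl
    have h3 := step1 (x ^ m) hfix'
    haveI : Group.IsNilpotent (RR p G) := hnil
    have h4 : (MulAut.conjNormal (x ^ m) : MulAut (RR p G)) ^ (p ^ a) = 1 := by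
      rw [← map_pow, hy1, map_one]
    have h5 := hC (RR p G) p (MulAut.conjNormal (x ^ m) : MulAut (RR p G)) a hcop h4 h3
    show x ^ m ∈ Subgroup.centralizer (RR p G : Set G)
    rw [Subgroup.mem_centralizer_iff]
    intro r hr
    have h6 := congrArg Subtype.val (h5 ⟨r, hr⟩)
    rw [MulAut.conjNormal_apply] at h6
    have h7 : x ^ m * r * (x ^ m)⁻¹ = r := h6
    exact (mul_inv_eq_iff_eq_mul.1 h7).symm
  -- Step 3: `x` is a product of powers of `x ^ m` and `x ^ (p ^ k)`
  have hb := Int.gcd_eq_gcd_ab (m : ℤ) ((p ^ k : ℕ) : ℤ)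
  have hg : Int.gcd (m : ℤ) ((p ^ k : ℕ) : ℤ) = 1 := by
    rw [Int.gcd_natCast_natCast]
    exact hcopm
  rw [hg] at hb
  have hx' : x = (x ^ m) ^ (Int.gcdA (m : ℤ) ((p ^ k : ℕ) : ℤ)) *
      (x ^ (p ^ k)) ^ (Int.gcdB (m : ℤ) ((p ^ k : ℕ) : ℤ)) := by
    rw [← zpow_natCast x m, ← zpow_natCast x (p ^ k), ← zpow_mul, ← zpow_mul, ← zpow_add, ← hb]
    simp
  rw [hx']
  exact Subgroup.mul_mem _ (Subgroup.zpow_mem _ hyF _) (Subgroup.zpow_mem _ hk _)

end Cfsg.Agent.Lib.Helper39.SqfDeg
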